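import Cfsg.Agent.TwoF.XL.Fac
import Cfsg.Agent.TwoF.XL.Rch
import Cfsg.Agent.TwoF.XE.Lo
import Cfsg.Agent.H77.Geom
import Cfsg.Agent.H934.IdxPSU
import Cfsg.Agent.H740.Cyc.PSUAut
import Cfsg.Agent.GH.Cov.LieU4Diag
import Cfsg.Agent.Mrg.Omega.TwoF.RkPSU

/-!
# TwoF / XL: transvections, Siegel transformations and involutions of unitary groups (helper1)
-/

set_option autoImplicit false

namespace Cfsg.Agent.TwoF.XL

open Module Gen XE Subgroup Matrix
open Cfsg.Agent.ClassicalGeometry Cfsg.Agent.ClassicalGeometry.PSUAutBasic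
open Cfsg.Agent.LieClassical.HermBasic Cfsg.Agent.LieClassical.HermSiegel
open Cfsg.Agent.ClassicalGeometry.PSUAutCount (gm toAut semiConj)
open scoped commutatorElement

theorem le_of_reach {p : ℕ} [Fact p.Prime] {S : Type} [Group S] {α : MulAut S} {k d c : ℕ}
    (h : H915.Gs.Reach α k ⊤) (hd : LB p S d) (hc : k * (c - 1) < d) : Le p α c :=
  le_of_elt fun _ _ _ _ _ _ _ _ _ _ _ H y hy => by
    have h1 := (hd.le H).trans (finrank_le_of_reach H (hy ▸ h))
    by_contra e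
    exact absurd (h1.trans (Nat.mul_le_mul_left k (Nat.le_sub_one_of_lt (not_le.1 e)))) (not_le.2 hc)

variable {F : Type} [Field F] [Fintype F] {n q : ℕ}

section Rep

variable {k : Type*} [Field k] {V : Type*} [AddCommGroup V] [Module k V] [FiniteDimensional k V]
  {σ : Representation k (SU n F q) V} {r : ℕ}

theorem transv_pow (hF : Fintype.card F = q ^ 2) {u : Fin n → F} (hu : hermForm n F q u u = 0) {μ : F}
    (hμ : μ + μ ^ q = 0) (j : ℕ) (v : Fin n → F) :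
    act (transv hF u hu μ hμ ^ j) v = v + ((j : F) * μ * hermForm n F q v u) • u := by
  induction j with
  | zero => rw [pow_zero, act_one, Nat.cast_zero, zero_mul, zero_mul, zero_smul, add_zero]
  | succ j ih =>
    rw [pow_succ', act_mul, ih, act_transv, herm_add_left, herm_smul_left, hu, mul_zero, add_zero, add_assoc,
      ← add_smul, Nat.cast_succ]
    congr 2
    ring

variable (hF : Fintype.card F = q ^ 2) (hn : 3 ≤ n) (hr : r.Prime) [CharP F r] (hk : (r : k) ≠ 0)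
  (hσ : ∀ g, σ g = 1 → g ∈ center (SU n F q))
include hF hn hr hk hσ

/-- **transvections** -/
theorem cod_transv {u : Fin n → F} (hu0 : u ≠ 0) (hu : hermForm n F q u u = 0) {z : SU n F q}
    (hz : z ∈ transvG hF u hu) (h1 : z ≠ 1) : (r - 1) * q ^ (n - 1) ≤ r * cod σ (zpowers z) := by
  have := Fact.mk hr
  obtain ⟨e, f, H⟩ := exists_frame (F := F) (n := n) hF (by omega)
  have he0 : e ≠ 0 := by
    rintro rfl
    exact zero_ne_one ((herm_zero_left _).symm.trans H.ef)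
  have hy := H934.IdxPSU.hyp hF he0 H.ee
  have hle := transvG_le_siegG hF H.ee
  have hc : ∀ a ∈ siegG hF e H.ee, ∀ b ∈ transvG hF e H.ee, a * b = b * a := fun a ha b hb =>
    congrArg Subtype.val (hy.central ⟨b, hle hb⟩ hb ⟨a, ha⟩)
  have he : ∀ g ∈ transvG hF e H.ee, g ^ r = 1 := by
    rintro _ ⟨μ, hμ, rfl⟩
    refine ext_act fun v => ?_
    rw [transv_pow, CharP.cast_eq_zero, zero_mul, zero_mul, zero_smul, add_zero, act_one]
  have hne : ∀ {μ : F} {hμ : μ + μ ^ q = 0}, transv hF e H.ee μ hμ ≠ 1 → μ ≠ 0 := fun h e =>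
    h (H934.IdxPSU.transv_eq_one hF _ _ e)
  have ht : Tr (transvG hF e H.ee) := by
    rintro _ ⟨μ, hμ, rfl⟩ h0 _ ⟨ν, hν, rfl⟩ h0'
    have a1 := hne h0
    have a2 := hne h0'
    have hl : (ν / μ) ^ q = ν / μ := by
      rw [div_pow, eq_neg_of_add_eq_zero_right hμ, eq_neg_of_add_eq_zero_right hν, neg_div_neg_eq]
    obtain ⟨g, hg⟩ := H175.BdSU.exists_torus hF hn he0 H.ee hl (div_ne_zero a2 a1)
    have tr : ∀ x : F, x + x ^ q = 0 → ν / μ * x + (ν / μ * x) ^ q = 0 := fun x hx => by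
      rw [mul_pow, hl, ← mul_add, hx, mul_zero]
    refine ⟨g⁻¹, inv_mem (mem_normalizer_fintype ?_), ?_⟩
    · rintro _ ⟨x, hx, rfl⟩
      exact ⟨_, tr x hx, hg x hx _⟩
    · rw [inv_inv, hg μ hμ (tr μ hμ)]
      congr 1
      exact div_mul_cancel₀ ν a1
  have hcard : Nat.card (transvG hF e H.ee) = q :=
    le_antisymm (H175.BdSU.card_transvG_le hF H.ee) (H934.IdxPSU.card_transvG hF he0 H.ee)
  have hb := heis_lb (ρ := σ) (m := q ^ (n - 2)) hr hk hle hc he
    (fun a ha b hb => hy.comm_mem ⟨a, ha⟩ (mem_top _) ⟨b, hb⟩ (mem_top _))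
    (fun t ht h z hz => by
      obtain ⟨y, -, e⟩ := hy.special ⟨t, ht⟩ (mem_top _) h ⟨z, hle hz⟩ hz
      exact ⟨y, y.2, congrArg Subtype.val e⟩) ht
    (by
      obtain ⟨c, c0, hc⟩ := exists_trace_zero_ne hF
      refine ⟨_, ⟨c, hc, rfl⟩, fun e => c0 (H175.BdSU.transv_inj hF he0 H.ee
        ((eq_one_of_center_of_pow hF hn (k := 1) (hσ _ e) (by rw [pow_one]; exact he _ ⟨c, hc, rfl⟩)).trans
          (transv_zero hF H.ee (by rw [zero_pow_q hF, add_zero])).symm))⟩)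
    (by
      refine Nat.le_of_mul_le_mul_right ?_ (q_pos hF)
      have h2 := card_mul_index ((transvG hF e H.ee).subgroupOf (siegG hF e H.ee))
      rw [Nat.card_congr (subgroupOfEquivOfLe hle).toEquiv, hcard] at h2
      rw [← pow_mul, mul_comm (n - 2), pow_mul, mul_comm (relIndex _ _), relIndex, h2]
      exact H934.IdxPSU.card_siegG hF H)
  obtain ⟨g, hg⟩ := H77.Geom.exists_map hF hn hu0 hu he0 H.ee
  obtain ⟨μ, hμ, rfl⟩ := hz
  have h2 : g * transv hF u hu μ hμ * g⁻¹ = transv hF e H.ee μ hμ :=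
    (conj_siegel hF _ g).trans (siegel_congr hF _ _ hg (act_zero g) rfl)
  have h3 := cod_elt_of_tr hr hk (fun a ha => hc a (hle ha)) he ht (z := transv hF e H.ee μ hμ) ⟨_, _, rfl⟩
    (fun e => h1 (by rwa [← h2, _root_.conj_eq_one_iff] at e)) hb
  rwa [hcard, ← h2, cod_zpowers_conj, mul_assoc, ← pow_succ', show n - 2 + 1 = n - 1 by omega] at h3

/-- **Siegel transformations that are not transvections** -/
theorem cod_siegel {u : Fin n → F} (hu0 : u ≠ 0) (hu : hermForm n F q u u = 0) {g : SU n F q}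
    (hg : g ∈ siegG hF u hu) (h1 : g ∉ transvG hF u hu) :
    (r - 1) * (r - 1) * q ^ (n - 1) ≤ r * r * cod σ (zpowers g) := by
  have := Fact.mk hr
  have hy := H934.IdxPSU.hyp hF hu0 hu
  have hle := transvG_le_siegG hF hu
  obtain ⟨c, c0, hc⟩ := exists_trace_zero_ne hF
  have hz : (transv hF u hu c hc)⁻¹ ∈ transvG hF u hu := inv_mem ⟨c, hc, rfl⟩
  obtain ⟨y, -, e⟩ := hy.special ⟨g, hg⟩ (mem_top _) h1 ⟨_, hle hz⟩ hz
  have e1 : ⁅(y : SU n F q), g⁆ = transv hF u hu c hc := by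
    rw [← commutatorElement_inv, inv_eq_iff_eq_inv]
    exact congrArg Subtype.val e
  have cm : ∀ a ∈ siegG hF u hu, a * ⁅(y : SU n F q), g⁆ = ⁅(y : SU n F q), g⁆ * a := fun a ha =>
    e1 ▸ congrArg Subtype.val (hy.central ⟨_, hle ⟨c, hc, rfl⟩⟩ ⟨c, hc, rfl⟩ ⟨a, ha⟩)
  have h2 := heis_noncentral (ρ := σ) (isPGroup_siegG hF r hu) hk hg y.2 (cm _ y.2) (cm _ hg)
  have h3 := cod_transv hF hn hr hk hσ hu0 hu (z := transv hF u hu c hc) ⟨c, hc, rfl⟩ fun e => c0
    (H175.BdSU.transv_inj hF hu0 hu (e.trans (transv_zero hF hu (by rw [zero_pow_q hF, add_zero])).symm))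
  rw [e1] at h2
  calc _ = (r - 1) * ((r - 1) * q ^ (n - 1)) := mul_assoc _ _ _
    _ ≤ (r - 1) * (r * cod σ (zpowers (transv hF u hu c hc))) := Nat.mul_le_mul_left _ h3
    _ = r * ((r - 1) * cod σ (zpowers (transv hF u hu c hc))) := mul_left_comm _ _ _
    _ ≤ r * (r * cod σ (zpowers g)) := Nat.mul_le_mul_left _ h2
    _ = _ := (mul_assoc _ _ _).symm

end Rep

/-- `C` acts as `c` on the isotropic vector `u` and as `-c` on `w`: it inverts a Siegel transformation -/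
theorem semiConj_inv (hF : Fintype.card F = q ^ 2) {C : GU n F q} {u w : Fin n → F} {c μ : F} (hc : c * c ^ q = 1)
    (h : IsSiegel q u w μ) (hμ : μ ^ q = μ) (hu : gm C *ᵥ u = c • u) (hw : gm C *ᵥ w = -c • w) :
    semiConj C 1 (siegel hF u w μ h) = (siegel hF u w μ h)⁻¹ := by
  refine ext_act fun x => ?_
  obtain ⟨y, rfl⟩ : ∃ y, x = gm C *ᵥ y := ⟨_, (PSUAutCount.gm_mulVec_inv C x).symm⟩
  have h1 : hermForm n F q (gm C *ᵥ y) u = c * hermForm n F q y u := by
    rw [← PSUAutCount.herm_gm C y u, hu, herm_smul_right, ← mul_assoc, hc, one_mul]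
  have h2 : hermForm n F q (gm C *ᵥ y) w = -c * hermForm n F q y w := by
    rw [← PSUAutCount.herm_gm C y w, hw, herm_smul_right, ← mul_assoc, neg_pow_q hF, neg_mul_neg, hc, one_mul]
  rw [Schreier.PSU.act_semiConj_one, siegel_inv, act_siegel, act_siegel, herm_neg_right hF, h1, h2, hμ, mulVec_add,
    mulVec_add, mulVec_smul, mulVec_smul, hu, hw]
  module

/-- linear involutions in odd dimension invert a Siegel transformation -/
theorem exists_inverted (hF : Fintype.card F = q ^ 2) (hn : 3 ≤ n) (ho : Odd n) (h2 : (2 : F) ≠ 0) {C : GU n F q}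
    (h1 : toAut C 1 ≠ 1) (hC : toAut C 1 * toAut C 1 = 1) : ∃ (u : Fin n → F) (hu : hermForm n F q u u = 0),
      u ≠ 0 ∧ ∃ g ∈ siegG hF u hu, g ∉ transvG hF u hu ∧ semiConj C 1 g = g⁻¹ := by
  rw [← H740.Cyc.toAut_mul_one hF, ← H740.Cyc.toAut_one_one] at hC
  obtain ⟨-, c, hc, e⟩ := PSUAutCount.eq_of_toAut_eq hF hn hC.symm
  rw [PSUAutCount.gm_mul, PSUAutCount.gm_one] at e
  obtain ⟨m, rfl⟩ := ho
  have hI : GH.Cov.LieU4.Iso q (gm C) := PSUAutCount.herm_gm C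
  have c0 : c ≠ 0 := left_ne_zero_of_mul_eq_one hc
  have hd := hI.det_pow hF
  have hd2 := congrArg det e
  rw [det_mul, det_smul, det_one, mul_one, Fintype.card_fin] at hd2
  obtain ⟨l, l1, l2⟩ : ∃ l : F, l * l ^ q = 1 ∧ l * l * c = 1 := by
    refine ⟨c ^ m / (gm C).det, ?_, ?_⟩
    · rw [← pow_succ', div_pow, hd, div_one, ← pow_mul, mul_comm m, pow_mul, pow_succ', hc, one_pow]
    · rw [div_mul_div_comm, hd2, div_mul_eq_mul_div, ← pow_add, ← pow_succ, two_mul, div_self (pow_ne_zero _ c0)]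
  have l0 : l ≠ 0 := left_ne_zero_of_mul_eq_one l1
  obtain ⟨U, hU, s, hs, e2⟩ := GH.Cov.LieU4.exists_diag hF h2 _ (l • gm C) (hI.smul l1) (by
    rw [smul_mul_smul_comm, e, smul_smul, l2, one_smul])
  obtain ⟨U', -, U1, U2⟩ := hU.exists_inv hF
  have li : l⁻¹ * l⁻¹ ^ q = 1 := by rw [inv_pow, ← mul_inv, l1, inv_one]
  have ss : ∀ i, s i * s i ^ q = 1 := fun i => by
    rcases hs i with h | h <;> rw [h]
    · rw [one_pow, one_mul]
    · rw [neg_pow_q hF, one_pow, neg_mul_neg, one_mul]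
  have hv : ∀ i (a : F), gm C *ᵥ (U *ᵥ Pi.single i a) = (l⁻¹ * s i) • (U *ᵥ Pi.single i a) := fun i a => by
    have h := congrArg (· *ᵥ Pi.single i a) e2
    simp only [← mulVec_mulVec, smul_mulVec, diagonal_mulVec_single] at h
    rw [mul_smul, ← mulVec_smul U (s i), ← Pi.single_smul, smul_eq_mul, ← h, inv_smul_smul₀ l0]
  obtain ⟨i, j, t, hij, h3, h4⟩ : ∃ i j t, i ≠ j ∧ s j = s i ∧ s t = -s i := by
    by_contra h
    push Not at h
    have alt : ∀ i j, s j = s i ∨ s j = -s i := fun i j => by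
      rcases hs i with a | a <;> rcases hs j with b | b <;> simp [a, b]
    have ex : ∃ i j, i ≠ j ∧ s j = s i := by
      rcases alt ⟨0, by omega⟩ ⟨1, by omega⟩ with a | a
      · exact ⟨_, _, by simp, a⟩
      rcases alt ⟨0, by omega⟩ ⟨2, by omega⟩ with b | b
      · exact ⟨_, _, by simp, b⟩
      · exact ⟨⟨1, by omega⟩, ⟨2, by omega⟩, by simp, b.trans a.symm⟩
    obtain ⟨i, j, hij, e⟩ := ex
    refine h1 (H740.Cyc.toAut_eq_one_of_scalar hF (c := l⁻¹ * s i)
      (by rw [pow_succ', LieClassical.HermBasic.norm_mul, li, ss, one_mul]) ?_)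
    have h5 : diagonal s = s i • (1 : Matrix _ _ F) := by
      rw [smul_one_eq_diagonal]
      exact congrArg diagonal (funext fun t => (alt i t).resolve_right (h i j t hij e))
    rw [mul_smul, eq_inv_smul_iff₀ l0, ← Matrix.mul_one (l • gm C), ← U1, ← Matrix.mul_assoc, e2, h5, Matrix.mul_smul,
      Matrix.mul_one, Matrix.smul_mul]
  have s0 : s i ≠ 0 := left_ne_zero_of_mul_eq_one (ss i)
  have ht : ∀ x, s x = s i → x ≠ t := by
    rintro x hx rfl
    exact mul_ne_zero h2 s0 (by linear_combination h4 - hx)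
  obtain ⟨a, ha⟩ := exists_norm_eq hF (c := -1) (by rw [neg_pow_q hF, one_pow])
  have hu : hermForm _ F q (U *ᵥ (Pi.single i 1 + Pi.single j a)) (U *ᵥ (Pi.single i 1 + Pi.single j a)) = 0 := by
    rw [hU, herm_add_left, herm_single_left, herm_single_left]
    simp [Pi.single_eq_of_ne hij, Pi.single_eq_of_ne hij.symm, ha]
  have hw : hermForm _ F q (U *ᵥ Pi.single t 1) (U *ᵥ Pi.single t 1) = 1 := by
    rw [hU, herm_single_left, Pi.single_eq_same, one_pow, one_mul]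
  have hμ : (-2⁻¹ : F) ^ q = -2⁻¹ := by
    rw [neg_pow_q hF, inv_pow, ← one_add_one_eq_two, add_pow_q hF, one_pow]
  have hS : IsSiegel q (U *ᵥ (Pi.single i 1 + Pi.single j a)) (U *ᵥ Pi.single t 1) (-2⁻¹ : F) := by
    refine ⟨hu, ?_, ?_⟩
    · rw [hU, herm_single_left]
      simp [Pi.single_eq_of_ne (ht i rfl).symm, Pi.single_eq_of_ne (ht j h3).symm, zero_pow_q hF]
    · rw [hμ, hw]
      field_simp
      ring
  have u0 : U *ᵥ (Pi.single i 1 + Pi.single j a) ≠ 0 := fun h => by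
    have h5 := congrFun (congrArg (U' *ᵥ ·) h) i
    simp [mulVec_mulVec, U2, Pi.single_eq_of_ne hij] at h5
  refine ⟨_, hu, u0, siegel hF _ _ _ hS, ⟨_, _, hS, rfl⟩, ?_, semiConj_inv hF (c := l⁻¹ * s i)
    (by rw [LieClassical.HermBasic.norm_mul, li, ss, one_mul]) hS hμ ?_ ?_⟩
  · rintro ⟨ν, hν, h⟩
    have h5 := congrArg (act · (U *ᵥ Pi.single t 1)) h
    simp only [act_siegel, act_transv, hS.orth, hw] at h5
    simp [u0] at h5
  · rw [mulVec_add, mulVec_add, hv, hv, h3, smul_add]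
  · rw [hv, h4, mul_neg]

/-- **linear involutions in odd dimension** -/
theorem le_linU (hF : Fintype.card F = q ^ 2) (hn : 3 ≤ n) (ho : Odd n) {r : ℕ} (hr : r.Prime) [CharP F r] (h2 : r ≠ 2)
    (h32 : q ≠ 2) {C : GU n F q} (h1 : toAut C 1 ≠ 1) (hC : toAut C 1 * toAut C 1 = 1) {c : ℕ}
    (hc : r * r * (2 * (c - 1)) < (r - 1) * (r - 1) * q ^ (n - 1)) : Le 2 (toAut C 1) c :=
  le_of_elt fun _ _ _ _ _ _ _ _ ρ _ _ H y hy => by
    have := Fact.mk hr
    obtain ⟨ι, L⟩ := exists_lfU H hF hn (fun e => h32 e.2) (by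
      rintro (e | e | e) <;> rw [(Prod.mk.inj e).1] at ho <;> exact absurd ho (by decide))
    obtain ⟨u, hu, u0, g, hg, g1, e⟩ := exists_inverted hF hn ho (by
      exact_mod_cast fun e : ((2 : ℕ) : F) = 0 =>
        h2 ((Nat.prime_dvd_prime_iff_eq hr Nat.prime_two).1 ((CharP.cast_eq_zero_iff F r 2).1 e))) h1 hC
    have h3 := cod_siegel (σ := ρ.comp ι) hF hn hr (cast_ne_zero hr h2) (L.cenU H) u0 hu hg g1
    have h4 := L.conjU H hF hn (fun e => h32 e.2) hy g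
    rw [e, map_inv] at h4
    rw [cod_comp, MonoidHom.map_zpowers] at h3
    have h5 : cod ρ (zpowers (ι g)) ≤ 2 * cod ρ (zpowers y) := cod_le_two_mul (x := ι g) fun J a1 a2 => by
      have a3 : ι g * ι g ∈ J := by
        have a4 := mul_mem a2 (inv_mem a1)
        rwa [mul_assoc, mul_assoc, ← mul_assoc y, ← conj_inv, h4, inv_inv] at a4
      obtain ⟨j, hj⟩ := isPGroup_siegG hF r hu ⟨g, hg⟩
      obtain ⟨t, ht⟩ := (hr.odd_of_ne_two h2).pow (n := j)
      have a5 : ι g ^ (2 * t + 1) = 1 := by rw [← ht, ← map_pow, show g ^ r ^ j = 1 from congrArg Subtype.val hj, map_one]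
      rw [pow_succ, pow_mul, pow_two, mul_eq_one_iff_inv_eq] at a5
      exact zpowers_le.2 (a5 ▸ inv_mem (pow_mem a3 t))
    by_contra h6
    exact absurd (h3.trans (Nat.mul_le_mul_left _ (h5.trans
      (Nat.mul_le_mul_left 2 (Nat.le_sub_one_of_lt (not_le.1 h6)))))) (not_le.2 hc)

/-- an elementary abelian `2`-group of rank at least two contains a linear involution -/
theorem exists_linU (hF : Fintype.card F = q ^ 2) (hn : 3 ≤ n) (h32 : ¬ (n = 3 ∧ q = 2))
    {E : Subgroup (MulAut (PSU n F q))} (hE : ∀ x ∈ E, x * x = 1) (hc : 2 < Nat.card E) :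
    ∃ C : GU n F q, toAut C 1 ∈ E ∧ toAut C 1 ≠ 1 := by
  have := finU n F q
  have : Finite (MulAut (PSU n F q)) := Finite.of_injective _ (DFunLike.coe_injective (F := MulAut (PSU n F q)))
  have h1 : Nat.card E ≤ 2 * Nat.card (E ⊓ (H740.Cyc.fld hF hn h32).ker : Subgroup _) :=
    Omega.TwoF.RkLin.card_le_two_mul fun x hx hxn y hy hyn => ⟨mul_mem hx hy, by
      have a1 : ∀ z ∈ E, H740.Cyc.fld hF hn h32 z * H740.Cyc.fld hF hn h32 z = 1 := fun z hz => by
        rw [← map_mul, hE z hz, map_one]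
      refine MonoidHom.mem_ker.2 ?_
      rw [map_mul, ← Omega.TwoF.RkPSL.field_inv_unique (a1 x hx) (a1 y hy) (fun e => hxn ⟨hx, e⟩)
        (fun e => hyn ⟨hy, e⟩), a1 x hx]⟩
  obtain ⟨⟨x, hx, hx'⟩, x1⟩ := ne_bot_iff_exists_ne_one.1 (show E ⊓ (H740.Cyc.fld hF hn h32).ker ≠ ⊥ from fun e => by
    rw [e, card_bot] at h1
    omega)
  obtain ⟨C, rfl⟩ := H740.Cyc.exists_of_fld_eq_one hF hn h32 hx'
  exact ⟨C, hx, fun e => x1 (Subtype.ext e)⟩

theorem rank_two {S : Type} [Group S] {a : ℕ} (h : Omega.TwoF.RkPSL.RkAut S a) (E : Subgroup (MulAut S))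
    (hE : IsElementaryAbelian 2 E) : Nat.card E ≤ 2 ^ a :=
  h E fun x hx => by rw [← pow_two]; exact hE.2 _ hx

/-- **`U_n(q)`, `n` and `q` odd, `p = 2`** -/
theorem noOff_U_odd (hF : Fintype.card F = q ^ 2) (hn : 3 ≤ n) (ho : Odd n) {r : ℕ} (hr : r.Prime) [CharP F r]
    (h2 : r ≠ 2) (hq : ¬ 2 ∣ q) (ha : (n + 2) * 2 < (q - 1) * q ^ (n - 2))
    (hb : r * r * (2 * (2 * n)) < (r - 1) * (r - 1) * q ^ (n - 1)) : NoOff 2 (PSU n F q) := by
  have h32 : q ≠ 2 := fun e => hq (e ▸ dvd_rfl)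
  refine noOff_of_lo fun E hE j hj hc => ?_
  have h3 := rank_two (Omega.TwoF.RkPSU.rkAut hF (by
    exact_mod_cast fun e : ((2 : ℕ) : F) = 0 =>
      h2 ((Nat.prime_dvd_prime_iff_eq hr Nat.prime_two).1 ((CharP.cast_eq_zero_iff F r 2).1 e))) hn) E hE
  rw [hc, Nat.pow_le_pow_iff_right (by omega), Omega.TwoF.RkLin.rk, if_neg (by obtain ⟨m, rfl⟩ := ho; omega)] at h3
  have sq : ∀ x ∈ E, x * x = 1 := fun x hx => by rw [← pow_two]; exact hE.2 _ hx
  rcases (Nat.succ_le_of_lt hj).eq_or_lt with rfl | h4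
  · obtain ⟨α, hα, h1⟩ := exists_ne_one hj hc
    refine (le_of_reach (reach_U' hF hn (fun e => h32 e.2) (fun e => h32 e.2)
      (orderOf_eq_prime (hE.2 _ hα) h1 ▸ Nat.prime_two)) (lbU hF hq hn (fun e => h32 e.2) ?_) ha).lo hα
    rintro (e | e | e) <;> rw [(Prod.mk.inj e).1] at ho <;> exact absurd ho (by decide)
  · obtain ⟨C, h5, h6⟩ := exists_linU hF hn (fun e => h32 e.2) sq
      (hc ▸ (Nat.pow_lt_pow_right (by omega) h4 : 2 ^ 1 < 2 ^ j))
    refine (le_linU hF hn ho hr h2 h32 h6 (sq _ h5) (lt_of_le_of_lt ?_ hb)).lo h5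
    exact Nat.mul_le_mul_left _ (by omega)

end Cfsg.Agent.TwoF.XL
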